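import Mathlib
import Cfsg.Prelude.Def_OddOrderLocal
import Cfsg.Statements.S1350
import Cfsg.Statements.S1375
import Cfsg.Statements.S1376
import Cfsg.Statements.S1403
import Cfsg.Statements.S1419

/-!
# S1380 (Bender–Glauberman Theorem I: Type I ⟺ `K = 1 ∧ U ≠ 1`): package statements

Team project led by helper52.  Paper proof: note topic `S1380` (kind hint, by helper52).

The frozen `IsOfTypeI` asks, in its third alternative, for `O_{p'}(M)` (not `O_{p'}(M_F)`) to be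
cyclic.  The packages below prove the missing step: in case (2) of S1440 with `K = 1`, the cyclic
`τ₂(M)`-group `X` with `C_M(P) = C_{M_σ}(P) X` (S1438, `P = O_p(M_σ)`) centralizes
`Z = O_{p'}(M_σ)`, so that `O_{p'}(M) = Z × X` is cyclic.

Each `Lem…` is the exact statement of one package; a package is a theorem
`… : Cfsg.Agent.Lib.Helper52.BG80.Lem….{u}` in the taker's own Lib file.
-/

set_option autoImplicit false

namespace Cfsg.Agent.Lib.Helper52.BG80

universe u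

/-- Package A (the `N`-argument; BG content).  `x ∈ M_σ` of prime order `p` with `C_G(x) ⊄ M`,
`P` any nonabelian `p`-subgroup of `G`, `M_F = M_σ`; `Z ≤ M_σ ∩ C(x)` cyclic of order prime to `p`;
`y ∈ C_M(x)` of prime order `r ∉ σ(M)` normalizing `Z`.  Then `y` centralizes `Z`. -/
def LemA : Prop :=
  ∀ {G : Type u} [Group G] [Finite G] (hG : Cfsg.IsMinSimpleOddOrder G)
    (_h1350 : type_of% (@Cfsg.CfsgFrozen.S1350 G _ _ hG))
    (_h1375 : type_of% (@Cfsg.CfsgFrozen.S1375 G _ _ hG))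
    (_h1376 : type_of% (@Cfsg.CfsgFrozen.S1376 G _ _ hG))
    (_h1403 : type_of% (@Cfsg.CfsgFrozen.S1403 G _ _ hG))
    (_h1419 : type_of% (@Cfsg.CfsgFrozen.S1419 G _ _ hG))
    (M : Subgroup G) (_hM : IsCoatom M)
    (_hFσ : Cfsg.fittingHallOf M = Cfsg.sigmaCore M)
    (p : ℕ) (_hp : p.Prime) (P : Subgroup G) (_hPp : IsPGroup p P) (_hPna : ¬ IsMulCommutative ↥P)
    (x : G) (_hxσ : x ∈ Cfsg.sigmaCore M) (_hxp : orderOf x = p)
    (_hxC : ¬ Subgroup.centralizer ({x} : Set G) ≤ M)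
    (Z : Subgroup G) (_hZσ : Z ≤ Cfsg.sigmaCore M) (_hZc : IsCyclic ↥Z)
    (_hZp : (Nat.card ↥Z).Coprime p) (_hZx : Z ≤ Subgroup.centralizer ({x} : Set G))
    (y : G) (_hyM : y ∈ M) (r : ℕ) (_hr : r.Prime) (_hyr : orderOf y = r)
    (_hrσ : r ∉ Cfsg.sigma M) (_hyx : y * x = x * y)
    (_hyZ : y ∈ Subgroup.normalizer (Z : Set G)),
    y ∈ Subgroup.centralizer (Z : Set G)

/-- Package B (pure group theory: transfer + a cyclic normal subgroup).  `M = H ⋊ E`, `H` an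
`r'`-group, `X ⊴ E` cyclic, the `r`-subgroups of `E` abelian, every cyclic normal subgroup of `M`
lies in `M'`, and every `r`-element of `M'` centralizes `H`.  If `y ∈ X` has order `r ^ (k+1)` and
`y ^ (r ^ k)` centralizes `H`, then `y` centralizes `H`. -/
def LemB : Prop :=
  ∀ {G : Type u} [Group G] [Finite G] (M H E X : Subgroup G) (r : ℕ) (_hr : r.Prime)
    (_hE : Cfsg.IsComplIn E H M) (_hMH : M ≤ Subgroup.normalizer (H : Set G))
    (_hHr : (Nat.card ↥H).Coprime r)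
    (_hXE : X ≤ E) (_hEX : E ≤ Subgroup.normalizer (X : Set G)) (_hXc : IsCyclic ↥X)
    (_hab : ∀ R : Subgroup G, R ≤ E → IsPGroup r R → IsMulCommutative ↥R)
    (_hcyc : ∀ C : Subgroup G, C ≤ M → M ≤ Subgroup.normalizer (C : Set G) → IsCyclic ↥C →
      C ≤ ⁅M, M⁆)
    (_hder : ∀ w ∈ ⁅M, M⁆, (∃ k : ℕ, w ^ r ^ k = 1) → w ∈ Subgroup.centralizer (H : Set G))
    (y : G) (_hyX : y ∈ X) (k : ℕ) (_hyk : orderOf y = r ^ (k + 1))
    (_hy1 : y ^ r ^ k ∈ Subgroup.centralizer (H : Set G)),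
    y ∈ Subgroup.centralizer (H : Set G)

/-- Package C (pure group theory: the `p'`-core).  `H = P × Z ⊴ M` with `P` a `p`-group normal in
`M`, `Z` cyclic of order prime to `p`; `C_M(P) = C_H(P) X` with `X` cyclic of order prime to `p`
and to `|Z|`, and `X` centralizes `Z`.  Then `O_{p'}(M)` is cyclic. -/
def LemC : Prop :=
  ∀ {G : Type u} [Group G] [Finite G] (M H P Z X : Subgroup G) (p : ℕ) (_hp : p.Prime)
    (_hHM : H ≤ M) (_hMH : M ≤ Subgroup.normalizer (H : Set G))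
    (_hPH : P ≤ H) (_hZH : Z ≤ H) (_hHPZ : H ≤ P ⊔ Z)
    (_hPp : IsPGroup p P) (_hMP : M ≤ Subgroup.normalizer (P : Set G))
    (_hZp : (Nat.card ↥Z).Coprime p) (_hZc : IsCyclic ↥Z)
    (_hZP : Z ≤ Subgroup.centralizer (P : Set G))
    (_hXc : IsCyclic ↥X) (_hXp : (Nat.card ↥X).Coprime p)
    (_hXZ' : (Nat.card ↥X).Coprime (Nat.card ↥Z))
    (_hC : M ⊓ Subgroup.centralizer (P : Set G) =
      (H ⊓ Subgroup.centralizer (P : Set G)) ⊔ X)
    (_hXZ : X ≤ Subgroup.centralizer (Z : Set G)),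
    IsCyclic ↥(Cfsg.pPrimeCore p ↥M)

end Cfsg.Agent.Lib.Helper52.BG80
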